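import Mathlib
import Cfsg.Agent.Lib.Helper95.OFX.Defs

/-!
# OFX project (S5977), package [ARITH]

If the `r`-part of `|O_d(q²)|` is smaller than that of `|O⁺_{2d}(q)|` (`r` an odd prime not
dividing `q`), then the order `i` of `q` modulo `r` is odd and `≤ d`, or `i ≡ 2 (mod 4)` and
`i / 2 + 1 ≤ d`.
-/

set_option autoImplicit false

namespace Cfsg.Agent.Lib.Helper88.OFX

open Cfsg.Agent.Lib.Helper95.OFX

/-- valuation of a product over a range -/
theorem arith_val_prod (r : ℕ) [Fact r.Prime] (F : ℕ → ℕ) (n : ℕ) (hF : ∀ j < n, F j ≠ 0) :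
    padicValNat r (∏ j ∈ Finset.range n, F j) = ∑ j ∈ Finset.range n, padicValNat r (F j) := by
  induction n with
  | zero => simp
  | succ n ih =>
    have e1 : ∏ j ∈ Finset.range n, F j ≠ 0 :=
      Finset.prod_ne_zero_iff.mpr (fun j hj => hF j (by have := Finset.mem_range.mp hj; omega))
    rw [Finset.prod_range_succ, Finset.sum_range_succ, padicValNat.mul e1 (hF n (by omega)),
      ih (fun j hj => hF j (by omega))]

/-- splitting a sum over `1, …, 2 m` into odd and even indices -/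
theorem arith_sum_split (h : ℕ → ℕ) (m : ℕ) :
    ∑ j ∈ Finset.range (2 * m), h (j + 1) =
      ∑ j ∈ Finset.range m, h (2 * j + 1) + ∑ j ∈ Finset.range m, h (2 * j + 2) := by
  induction m with
  | zero => simp
  | succ m ih =>
    have h1 : 2 * (m + 1) = 2 * m + 1 + 1 := by ring
    rw [h1, Finset.sum_range_succ, Finset.sum_range_succ, ih, Finset.sum_range_succ,
      Finset.sum_range_succ]
    have h2 : 2 * m + 1 + 1 = 2 * m + 2 := rfl
    rw [h2]
    ring

/-- `r ∣ q ^ n - 1` iff the order of `q` modulo `r` divides `n` -/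
theorem arith_dvd_iff (q r n : ℕ) (hq : 1 ≤ q) :
    r ∣ q ^ n - 1 ↔ orderOf (q : ZMod r) ∣ n := by
  rw [orderOf_dvd_iff_pow_eq_one, ← ZMod.natCast_eq_zero_iff,
    Nat.cast_sub (Nat.one_le_pow _ _ hq), Nat.cast_pow, Nat.cast_one, sub_eq_zero]

/-- the `r`-part of `|O⁺_{2d}(q)|` -/
theorem arith_oPlus (q r d : ℕ) [Fact r.Prime] (hr2 : r ≠ 2) (hrq : ¬ r ∣ q) (hq1 : 1 < q)
    (hd : 1 ≤ d) :
    padicValNat r (oPlusOrd q d) = padicValNat r (q ^ d - 1) +
      ∑ j ∈ Finset.range (d - 1), padicValNat r (q ^ (2 * (j + 1)) - 1) := by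
  have hr : r.Prime := Fact.out
  have hqn : ∀ n, 1 ≤ n → q ^ n - 1 ≠ 0 := by
    intro n hn
    have h1 : q ^ 1 ≤ q ^ n := Nat.pow_le_pow_right (by omega) hn
    rw [pow_one] at h1
    omega
  have hv2 : padicValNat r 2 = 0 := padicValNat.eq_zero_of_not_dvd (by
    intro h
    have := (Nat.prime_dvd_prime_iff_eq hr Nat.prime_two).mp h
    omega)
  have hvq : ∀ k, padicValNat r (q ^ k) = 0 := fun k =>
    padicValNat.eq_zero_of_not_dvd (fun h => hrq (hr.dvd_of_dvd_pow h))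
  have e1 : (2 : ℕ) ≠ 0 := by norm_num
  have e2 : q ^ (d * (d - 1)) ≠ 0 := pow_ne_zero _ (by omega)
  have e3 : q ^ d - 1 ≠ 0 := hqn d hd
  have e4 : ∏ j ∈ Finset.range (d - 1), (q ^ (2 * (j + 1)) - 1) ≠ 0 :=
    Finset.prod_ne_zero_iff.mpr (fun j _ => hqn _ (by omega))
  unfold oPlusOrd
  rw [padicValNat.mul (mul_ne_zero (mul_ne_zero e1 e2) e3) e4,
    padicValNat.mul (mul_ne_zero e1 e2) e3, padicValNat.mul e1 e2, hv2, hvq,
    arith_val_prod r _ _ (fun j _ => hqn _ (by omega))]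
  ring

/-- the `r`-part of `|O⁺_{2m}(q²)|` -/
theorem arith_oK_even (q r m : ℕ) [Fact r.Prime] (hr2 : r ≠ 2) (hrq : ¬ r ∣ q) (hq1 : 1 < q)
    (hm : 1 ≤ m) :
    padicValNat r (oKOrd q (2 * m)) = padicValNat r (q ^ (2 * m) - 1) +
      ∑ j ∈ Finset.range (m - 1), padicValNat r (q ^ (2 * (2 * j + 2)) - 1) := by
  have hr : r.Prime := Fact.out
  have hqn : ∀ n, 1 ≤ n → q ^ n - 1 ≠ 0 := by
    intro n hn
    have h1 : q ^ 1 ≤ q ^ n := Nat.pow_le_pow_right (by omega) hn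
    rw [pow_one] at h1
    omega
  have hv2 : padicValNat r 2 = 0 := padicValNat.eq_zero_of_not_dvd (by
    intro h
    have := (Nat.prime_dvd_prime_iff_eq hr Nat.prime_two).mp h
    omega)
  have hvq : ∀ k, padicValNat r (q ^ k) = 0 := fun k =>
    padicValNat.eq_zero_of_not_dvd (fun h => hrq (hr.dvd_of_dvd_pow h))
  have hdiv : 2 * m / 2 = m := Nat.mul_div_cancel_left m (by norm_num)
  have e1 : (2 : ℕ) ≠ 0 := by norm_num
  have e2 : q ^ (2 * (m * (m - 1))) ≠ 0 := pow_ne_zero _ (by omega)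
  have e3 : q ^ (2 * m) - 1 ≠ 0 := hqn _ (by omega)
  have e4 : ∏ j ∈ Finset.range (m - 1), (q ^ (2 * (2 * (j + 1))) - 1) ≠ 0 :=
    Finset.prod_ne_zero_iff.mpr (fun j _ => hqn _ (by omega))
  unfold oKOrd
  rw [if_pos (even_two_mul m), hdiv]
  simp only [← pow_mul]
  rw [padicValNat.mul (mul_ne_zero (mul_ne_zero e1 e2) e3) e4,
    padicValNat.mul (mul_ne_zero e1 e2) e3, padicValNat.mul e1 e2, hv2, hvq,
    arith_val_prod r _ _ (fun j _ => hqn _ (by omega))]
  have h3 : ∀ j : ℕ, 2 * (2 * (j + 1)) = 2 * (2 * j + 2) := fun j => by ring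
  simp only [h3]
  ring

/-- the `r`-part of `|O_{2m+1}(q²)|` -/
theorem arith_oK_odd (q r m : ℕ) [Fact r.Prime] (hr2 : r ≠ 2) (hrq : ¬ r ∣ q) (hq1 : 1 < q) :
    padicValNat r (oKOrd q (2 * m + 1)) =
      ∑ j ∈ Finset.range m, padicValNat r (q ^ (2 * (2 * j + 2)) - 1) := by
  have hr : r.Prime := Fact.out
  have hqn : ∀ n, 1 ≤ n → q ^ n - 1 ≠ 0 := by
    intro n hn
    have h1 : q ^ 1 ≤ q ^ n := Nat.pow_le_pow_right (by omega) hn
    rw [pow_one] at h1
    omega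
  have hv2 : padicValNat r 2 = 0 := padicValNat.eq_zero_of_not_dvd (by
    intro h
    have := (Nat.prime_dvd_prime_iff_eq hr Nat.prime_two).mp h
    omega)
  have hvq : ∀ k, padicValNat r (q ^ k) = 0 := fun k =>
    padicValNat.eq_zero_of_not_dvd (fun h => hrq (hr.dvd_of_dvd_pow h))
  have hdiv : (2 * m + 1) / 2 = m := by omega
  have hodd : ¬ Even (2 * m + 1) := by
    rw [Nat.not_even_iff_odd]; exact ⟨m, rfl⟩
  have e1 : (2 : ℕ) ≠ 0 := by norm_num
  have e2 : q ^ (2 * m ^ 2) ≠ 0 := pow_ne_zero _ (by omega)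
  have e4 : ∏ j ∈ Finset.range m, (q ^ (2 * (2 * (j + 1))) - 1) ≠ 0 :=
    Finset.prod_ne_zero_iff.mpr (fun j _ => hqn _ (by omega))
  unfold oKOrd
  rw [if_neg hodd, hdiv]
  simp only [← pow_mul]
  rw [padicValNat.mul (mul_ne_zero e1 e2) e4, padicValNat.mul e1 e2, hv2, hvq,
    arith_val_prod r _ _ (fun j _ => hqn _ (by omega))]
  have h3 : ∀ j : ℕ, 2 * (2 * (j + 1)) = 2 * (2 * j + 2) := fun j => by ring
  simp only [h3]
  ring

/-- **[ARITH]** -/
theorem pkgArith : PkgArith := by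
  intro q r d hr hr2 hrq hqodd hq1 hd hlt
  have hrF : Fact r.Prime := ⟨hr⟩
  by_contra hcon
  rw [not_or] at hcon
  obtain ⟨hc1, hc2⟩ := hcon
  -- odd `j ≤ d - 1` contribute nothing
  have key : ∀ j : ℕ, Odd j → j ≤ d - 1 → padicValNat r (q ^ (2 * j) - 1) = 0 := by
    intro j hj hjd
    by_contra hne
    have h1 : r ∣ q ^ (2 * j) - 1 := dvd_of_one_le_padicValNat (by omega)
    rw [arith_dvd_iff q r _ (by omega)] at h1
    have hjpos : 0 < j := hj.pos
    rcases Nat.even_or_odd (orderOf (q : ZMod r)) with he | ho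
    · obtain ⟨i', hi'⟩ := he
      have h2 : i' ∣ j := by
        have h3 : 2 * i' ∣ 2 * j := by
          have : orderOf (q : ZMod r) = 2 * i' := by omega
          rw [← this]; exact h1
        exact (Nat.mul_dvd_mul_iff_left (by norm_num)).mp h3
      have h4 : Odd i' := Odd.of_dvd_nat hj h2
      have h5 : i' ≤ j := Nat.le_of_dvd hjpos h2
      obtain ⟨t, ht⟩ := h4
      exact hc2 ⟨by omega, by omega⟩
    · have h2 : orderOf (q : ZMod r) ∣ j :=
        (Nat.Coprime.dvd_of_dvd_mul_left (Nat.Coprime.symm (Nat.coprime_two_left.mpr ho))) h1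
      have h5 : orderOf (q : ZMod r) ≤ j := Nat.le_of_dvd hjpos h2
      exact hc1 ⟨ho, by omega⟩
  have hP := arith_oPlus q r d hr2 hrq hq1 hd
  rcases Nat.even_or_odd' d with ⟨m, rfl | rfl⟩
  · -- `d = 2 m`
    obtain ⟨m', rfl⟩ : ∃ m', m = m' + 1 := ⟨m - 1, by omega⟩
    have hK := arith_oK_even q r (m' + 1) hr2 hrq hq1 (by omega)
    have h1 : 2 * (m' + 1) - 1 = 2 * m' + 1 := by omega
    have h2 : m' + 1 - 1 = m' := by omega
    rw [h1, Finset.sum_range_succ,
      arith_sum_split (fun n => padicValNat r (q ^ (2 * n) - 1)) m'] at hP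
    rw [h2] at hK
    have hodd : ∑ j ∈ Finset.range m', padicValNat r (q ^ (2 * (2 * j + 1)) - 1) = 0 :=
      Finset.sum_eq_zero (fun j hj => key (2 * j + 1) ⟨j, rfl⟩
        (by have := Finset.mem_range.mp hj; omega))
    have hlast : padicValNat r (q ^ (2 * (2 * m' + 1)) - 1) = 0 :=
      key (2 * m' + 1) ⟨m', rfl⟩ (by omega)
    rw [hodd, hlast] at hP
    omega
  · -- `d = 2 m + 1`
    have hK := arith_oK_odd q r m hr2 hrq hq1
    have h1 : 2 * m + 1 - 1 = 2 * m := by omega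
    rw [h1, arith_sum_split (fun n => padicValNat r (q ^ (2 * n) - 1)) m] at hP
    have hodd : ∑ j ∈ Finset.range m, padicValNat r (q ^ (2 * (2 * j + 1)) - 1) = 0 :=
      Finset.sum_eq_zero (fun j hj => key (2 * j + 1) ⟨j, rfl⟩
        (by have := Finset.mem_range.mp hj; omega))
    have hd0 : padicValNat r (q ^ (2 * m + 1) - 1) = 0 := by
      by_contra hne
      have h3 : r ∣ q ^ (2 * m + 1) - 1 := dvd_of_one_le_padicValNat (by omega)
      rw [arith_dvd_iff q r _ (by omega)] at h3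
      have h4 : Odd (orderOf (q : ZMod r)) := Odd.of_dvd_nat ⟨m, rfl⟩ h3
      exact hc1 ⟨h4, Nat.le_of_dvd (by omega) h3⟩
    rw [hodd, hd0] at hP
    omega

end Cfsg.Agent.Lib.Helper88.OFX
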