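import Mathlib
import Cfsg.Agent.Lib.Helper95.OFX.Defs
import Cfsg.Agent.Lib.Helper14.Spinor3
import Cfsg.Agent.Lib.Helper14.ReflGen
import Cfsg.Agent.Lib.Helper14.OmegaInv

/-!
# OFX project (S5977), package [SPIN]

`1, R_u, R_u' R_u, R_u'` represent the cosets of `Ω` in the isometry group of the plus form,
when `Q u * Q u'` is a non-square.
-/

set_option autoImplicit false

universe u

namespace Cfsg.Agent.Lib.Helper88.OFX

open Matrix Cfsg.Agent.Lib.Helper95.OFX Cfsg.Agent.Lib.Helper14

/-- in a finite field the product of two non-squares is a square -/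
theorem spin_nonsq_mul {F : Type u} [Field F] [Fintype F] {x y : F}
    (hx : ¬ IsSquare x) (hy : ¬ IsSquare y) : IsSquare (x * y) := by
  classical
  have hx0 : x ≠ 0 := fun h => hx (by rw [h]; exact IsSquare.zero)
  have hy0 : y ≠ 0 := fun h => hy (by rw [h]; exact IsSquare.zero)
  rw [← quadraticChar_one_iff_isSquare (mul_ne_zero hx0 hy0), map_mul,
    quadraticChar_neg_one_iff_not_isSquare.mpr hx, quadraticChar_neg_one_iff_not_isSquare.mpr hy]
  norm_num

/-- **[SPIN]** -/
theorem pkgSpin : PkgSpin.{u} := by
  intro F _ _ hodd d h hh u u' hu hu' hns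
  classical
  have h2 : (2 : F) ≠ 0 := two_ne_zero_of_card_odd hodd
  have hcoe : ⇑(plusQF d F) = Cfsg.quadFormPlus d F := plusQF_coe d F
  have hQ := plusQF_nondegenerate d F
  have hiso : ∀ x, plusQF d F ((h : Matrix (OI d) (OI d) F) *ᵥ x) = plusQF d F x := by
    intro x
    have h1 := (mem_isometryGroup_iff _ h).mp hh x
    rw [← hcoe] at h1
    exact h1
  obtain ⟨l, hl, hprod⟩ := matrix_eq_prod_refl h2 (plusQF d F) hQ
    (h : Matrix (OI d) (OI d) F) hiso
  have hu1 : plusQF d F u ≠ 0 := by rw [hcoe]; exact hu
  have hu1' : plusQF d F u' ≠ 0 := by rw [hcoe]; exact hu'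
  have hns1 : ¬ IsSquare (plusQF d F u * plusQF d F u') := by rw [hcoe]; exact hns
  -- the generic step
  have step : ∀ e : List (OI d → F), (∀ v ∈ e, plusQF d F v ≠ 0) →
      Even (e ++ l).length → IsSquare (((e ++ l).map ⇑(plusQF d F)).prod) →
      ∃ g : GL (OI d) F, g ∈ Cfsg.Geo.omegaGL (Cfsg.quadFormPlus d F) ∧
        (g : Matrix (OI d) (OI d) F) =
          (e.map (Cfsg.reflectionMatrix (Cfsg.quadFormPlus d F))).prod *
            (h : Matrix (OI d) (OI d) F) := by
    intro e he hev hsq
    have hl' : ∀ v ∈ e ++ l, plusQF d F v ≠ 0 := by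
      intro v hv
      rcases List.mem_append.mp hv with hv | hv
      · exact he v hv
      · exact hl v hv
    have hM : ((e ++ l).map (Cfsg.reflectionMatrix ⇑(plusQF d F))).prod =
        (e.map (Cfsg.reflectionMatrix (Cfsg.quadFormPlus d F))).prod *
          (h : Matrix (OI d) (OI d) F) := by
      rw [List.map_append, List.prod_append, ← hprod, hcoe]
    obtain ⟨g, hg, hgM⟩ := (exists_mem_omega_iff h2 (plusQF d F) hQ _ hcoe (e ++ l) hl' _
      hM).mpr ⟨hev, hsq⟩
    exact ⟨(g : GL (OI d) F), Subgroup.mem_map.mpr ⟨g, hg, rfl⟩, hgM⟩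
  have hR : ∀ v : OI d → F, plusQF d F v ≠ 0 → Rf d v * Rf d v = 1 := by
    intro v hv
    have h1 := reflectionMatrix_mul_self (plusQF d F) hv
    rw [hcoe] at h1
    exact h1
  by_cases hev : Even l.length
  · by_cases hsq : IsSquare ((l.map ⇑(plusQF d F)).prod)
    · obtain ⟨g, hg, hgM⟩ := step [] (by simp) (by simpa using hev) (by simpa using hsq)
      refine ⟨g, 1, 1, hg, by simp, ?_, Or.inl ⟨rfl, rfl⟩⟩
      rw [hgM]; simp
    · have hsq' : IsSquare ((([u', u] ++ l).map ⇑(plusQF d F)).prod) := by
        simp only [List.cons_append, List.nil_append, List.map_cons, List.prod_cons]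
        have h3 := spin_nonsq_mul hns1 hsq
        have e : plusQF d F u' * (plusQF d F u * (l.map ⇑(plusQF d F)).prod) =
            plusQF d F u * plusQF d F u' * (l.map ⇑(plusQF d F)).prod := by ring
        rw [e]; exact h3
      have hlen : Even ([u', u] ++ l).length := by
        have e : ([u', u] ++ l).length = l.length + 2 := by simp
        rw [e]; exact hev.add even_two
      obtain ⟨g, hg, hgM⟩ := step [u', u] (by
        intro v hv
        simp only [List.mem_cons, List.not_mem_nil, or_false] at hv
        rcases hv with rfl | rfl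
        · exact hu1'
        · exact hu1) hlen hsq'
      refine ⟨g, Rf d u' * Rf d u, Rf d u * Rf d u', hg, ?_, ?_,
        Or.inr (Or.inr (Or.inl ⟨rfl, rfl⟩))⟩
      · calc Rf d u' * Rf d u * (Rf d u * Rf d u')
            = Rf d u' * (Rf d u * Rf d u) * Rf d u' := by simp only [mul_assoc]
          _ = 1 := by rw [hR u hu1, mul_one, hR u' hu1']
      · rw [hgM]
        simp only [List.map_cons, List.map_nil, List.prod_cons, List.prod_nil, mul_one]
  · have hodd' : Odd l.length := Nat.not_even_iff_odd.mp hev
    by_cases hsq : IsSquare (plusQF d F u * (l.map ⇑(plusQF d F)).prod)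
    · have hsq' : IsSquare ((([u] ++ l).map ⇑(plusQF d F)).prod) := by
        simp only [List.cons_append, List.nil_append, List.map_cons, List.prod_cons]
        exact hsq
      have hlen : Even ([u] ++ l).length := by
        have e : ([u] ++ l).length = l.length + 1 := by simp
        rw [e]; exact hodd'.add_one
      obtain ⟨g, hg, hgM⟩ := step [u] (by
        intro v hv
        simp only [List.mem_cons, List.not_mem_nil, or_false] at hv
        rw [hv]; exact hu1) hlen hsq'
      refine ⟨g, Rf d u, Rf d u, hg, hR u hu1, ?_, Or.inr (Or.inl ⟨rfl, rfl⟩)⟩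
      rw [hgM]
      simp only [List.map_cons, List.map_nil, List.prod_cons, List.prod_nil, mul_one]
    · have hsq' : IsSquare ((([u'] ++ l).map ⇑(plusQF d F)).prod) := by
        simp only [List.cons_append, List.nil_append, List.map_cons, List.prod_cons]
        obtain ⟨t, ht⟩ := spin_nonsq_mul hsq hns1
        refine ⟨t / plusQF d F u, ?_⟩
        rw [div_mul_div_comm, ← ht]
        field_simp
      have hlen : Even ([u'] ++ l).length := by
        have e : ([u'] ++ l).length = l.length + 1 := by simp
        rw [e]; exact hodd'.add_one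
      obtain ⟨g, hg, hgM⟩ := step [u'] (by
        intro v hv
        simp only [List.mem_cons, List.not_mem_nil, or_false] at hv
        rw [hv]; exact hu1') hlen hsq'
      refine ⟨g, Rf d u', Rf d u', hg, hR u' hu1', ?_, Or.inr (Or.inr (Or.inr ⟨rfl, rfl⟩))⟩
      rw [hgM]
      simp only [List.map_cons, List.map_nil, List.prod_cons, List.prod_nil, mul_one]

end Cfsg.Agent.Lib.Helper88.OFX
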